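import Cfsg.Agent.Lib.Helper98.BL.Key

/-!
# The core claim: small irreducible characters non-trivial on `Z` do not contain `1_C`
-/

set_option autoImplicit false
set_option linter.unusedSectionVars false

namespace Cfsg.Agent.Lib.Helper98.BL

open Cfsg Cfsg.Agent.Lib.Helper20 Cfsg.Agent.Lib.Helper32
open scoped ComplexConjugate

universe u

variable {G : Type u} [Group G]

namespace Data

variable (D : Data G) [Fintype G] [Fintype D.C] [Fintype D.N] [Fintype D.X]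

theorem isIrr_oneC : IsIrrCharacter D.C (fun _ => (1 : ℂ)) := Cfsg.Agent.Lib.Helper83.isIrr_trivial

theorem pTriv_oneC : D.PTriv (fun _ => (1 : ℂ)) := fun _ => rfl

theorem not_cj_one {ζ : D.C → ℂ} (h : ¬ D.PTriv ζ) : ¬ D.Cj (fun _ => (1 : ℂ)) ζ := by
  rintro ⟨x, rfl⟩
  exact h (fun _ => rfl)

theorem inner_sub_sub {ψ Y₁ Y₂ : G → ℂ} (hψ : IsIrrCharacter G ψ) (h₁ : IsIrrCharacter G Y₁)
    (h₂ : IsIrrCharacter G Y₂) (n₁ : Y₁ ≠ ψ) (n₂ : Y₂ ≠ ψ) :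
    classInner (ψ - Y₁) (ψ - Y₂) = 1 + classInner Y₁ Y₂ := by
  rw [classInner_sub_left, classInner_sub_right, classInner_sub_right, classInner_irr_self hψ,
    classInner_irr_ne hψ h₂ (Ne.symm n₂), classInner_irr_ne h₁ hψ n₁]
  ring

/-- **Core claim.** -/
theorem core (e q : ℕ) (he : Nat.card D.N = e * Nat.card D.C) (hq : Fintype.card D.X = q)
    (heq : e ^ 2 + 1 < q) {ψ : G → ℂ} (hψ : IsIrrCharacter G ψ)
    (hH : ∀ ζ₀ : D.C → ℂ, IsIrrCharacter D.C ζ₀ → D.PTriv ζ₀ → ∀ T : Finset D.X,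
      (∀ κ ∈ T, κ ≠ 1 ∧ D.mm ψ (D.zk ζ₀ κ) ≠ 0) → T.card + e + 2 ≤ q)
    (hnt : ∃ ζ : D.C → ℂ, IsIrrCharacter D.C ζ ∧ ¬ D.PTriv ζ ∧ D.mm ψ ζ ≠ 0) :
    D.mm ψ (fun _ => 1) = 0 := by
  classical
  by_contra ha
  have hψc : IsCharacter G ψ := Cfsg.Agent.Lib.Helper82.isIrr_isChar hψ
  have hcl : IsClassFunction G ψ := Cfsg.Agent.Lib.Helper82.isChar_isClassFunction hψc
  obtain ⟨ζ, hζ, hζnt, hζm⟩ := hnt
  obtain ⟨ζ₀, lam, hζ₀, hP, rfl, hlam⟩ := D.exists_zk hζ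
  have hlam1 : lam ≠ 1 := hlam hζnt
  have h0 : ζ₀ 1 ≠ 0 := Cfsg.Agent.Lib.Helper82.isIrr_one_ne_zero hζ₀
  have hirr : ∀ κ, IsIrrCharacter D.C (D.zk ζ₀ κ) := fun κ => D.isIrr_zk hζ₀ κ
  have hnP : ∀ κ, κ ≠ 1 → ¬ D.PTriv (D.zk ζ₀ κ) := fun κ hκ => D.zk_not_pTriv hP h0 hκ
  have hagree : ∀ κ κ' : D.X, ∀ c, D.r c = 1 → D.zk ζ₀ κ c = D.zk ζ₀ κ' c := by
    intro κ κ' c hc
    rw [D.zk_of_r ζ₀ κ hc, D.zk_of_r ζ₀ κ' hc]
  have hinj : Function.Injective (D.zk ζ₀) := D.zk_injective hP h0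
  have hclz : ∀ κ, IsClassFunction D.C (D.zk ζ₀ κ) := fun κ =>
    Cfsg.Agent.Lib.Helper82.isChar_isClassFunction (Cfsg.Agent.Lib.Helper82.isIrr_isChar (hirr κ))
  -- the two sets
  set S1 : Finset D.X := Finset.univ.filter (fun κ => κ ≠ 1 ∧ D.mm ψ (D.zk ζ₀ κ) ≠ 0) with hS1
  set S0 : Finset D.X := Finset.univ.filter (fun κ => κ ≠ 1 ∧ D.mm ψ (D.zk ζ₀ κ) = 0) with hS0
  have hmem1 : ∀ κ, κ ∈ S1 ↔ κ ≠ 1 ∧ D.mm ψ (D.zk ζ₀ κ) ≠ 0 := by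
    intro κ; simp [hS1]
  have hmem0 : ∀ κ, κ ∈ S0 ↔ κ ≠ 1 ∧ D.mm ψ (D.zk ζ₀ κ) = 0 := by
    intro κ; simp [hS0]
  have hcard : S1.card + S0.card + 1 = q := by
    have hdisj : Disjoint S1 S0 := by
      rw [Finset.disjoint_left]
      intro κ h1 h2
      exact ((hmem1 κ).1 h1).2 ((hmem0 κ).1 h2).2
    have hun : S1 ∪ S0 = Finset.univ.erase (1 : D.X) := by
      ext κ
      simp only [Finset.mem_union, hmem1, hmem0, Finset.mem_erase, Finset.mem_univ, and_true]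
      tauto
    have h1 := Finset.card_union_of_disjoint hdisj
    rw [hun, Finset.card_erase_of_mem (Finset.mem_univ _), Finset.card_univ, hq] at h1
    have hqpos : 0 < q := by omega
    omega
  have hS1le : S1.card + e + 2 ≤ q := hH ζ₀ hζ₀ hP S1 (fun κ hκ => (hmem1 κ).1 hκ)
  have hlamS1 : lam ∈ S1 := (hmem1 lam).2 ⟨hlam1, hζm⟩
  -- norm two differences
  have hkey : ∀ κ ∈ S1, ∀ κ' ∈ S0, ∃ Y : IrrCharacter G, (Y : G → ℂ) ≠ ψ ∧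
      indFun D.C (D.zk ζ₀ κ - D.zk ζ₀ κ') = ψ - (Y : G → ℂ) := by
    intro κ hκ κ' hκ'
    exact D.key1 hψ (hirr κ) (hirr κ') (hnP κ ((hmem1 κ).1 hκ).1) (hnP κ' ((hmem0 κ').1 hκ').1)
      (hagree κ κ') ((hmem1 κ).1 hκ).2 ((hmem0 κ').1 hκ').2
  have hnc10 : ∀ κ ∈ S1, ∀ κ' ∈ S0, ¬ D.Cj (D.zk ζ₀ κ) (D.zk ζ₀ κ') := by
    intro κ hκ κ' hκ'
    apply D.not_cj_of_mm hcl
    rw [((hmem0 κ').1 hκ').2]
    exact ((hmem1 κ).1 hκ).2
  -- `S1` is a single class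
  have hsingle : ∀ κ ∈ S1, D.Cj (D.zk ζ₀ lam) (D.zk ζ₀ κ) := by
    intro κ₂ hκ₂
    by_contra hnc
    have hne0 : S0.Nonempty := by
      rw [← Finset.card_pos]; omega
    obtain ⟨κ₁', hκ₁'⟩ := hne0
    have hex : ∃ κ₂' ∈ S0, ¬ D.Cj (D.zk ζ₀ κ₁') (D.zk ζ₀ κ₂') := by
      by_contra hall
      push Not at hall
      have := D.card_le_of_cj S0 (D.zk ζ₀) hinj.injOn (hclz κ₁') hall e he
      omega
    obtain ⟨κ₂', hκ₂', hnc'⟩ := hex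
    obtain ⟨Y₁, hY₁, hD₁⟩ := hkey lam hlamS1 κ₁' hκ₁'
    obtain ⟨Y₂, hY₂, hD₂⟩ := hkey κ₂ hκ₂ κ₂' hκ₂'
    have h1 := D.inner_DD (hirr lam) (hirr κ₁') (hirr κ₂) (hirr κ₂') (hnP lam hlam1)
      (hnP κ₁' ((hmem0 κ₁').1 hκ₁').1) (hagree lam κ₁')
    rw [if_neg hnc, if_neg (fun hc => hnc10 κ₂ hκ₂ κ₁' hκ₁' hc.symm),
      if_neg (hnc10 lam hlamS1 κ₂' hκ₂'), if_neg hnc', hD₁, hD₂,
      inner_sub_sub hψ Y₁.2 Y₂.2 hY₁ hY₂, classInner_irr Y₁.2 Y₂.2] at h1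
    split_ifs at h1 <;> norm_num at h1
  have hS1e : S1.card ≤ e := D.card_le_of_cj S1 (D.zk ζ₀) hinj.injOn (hclz lam) hsingle e he
  -- the auxiliary linear character
  have hexk : ∃ κs : D.X, κs ≠ 1 ∧ D.mm ψ (D.hat κs) = 0 := by
    by_contra hall
    push Not at hall
    have h1 := hH (fun _ => 1) D.isIrr_oneC D.pTriv_oneC (Finset.univ.erase (1 : D.X)) (by
      intro κ hκ
      rw [zk_one_fun]
      exact ⟨Finset.ne_of_mem_erase hκ, hall κ (Finset.ne_of_mem_erase hκ)⟩)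
    rw [Finset.card_erase_of_mem (Finset.mem_univ _), Finset.card_univ, hq] at h1
    omega
  obtain ⟨κs, hκs1, hκsm⟩ := hexk
  have hhat : IsIrrCharacter D.C (D.hat κs) := D.isIrr_hat κs
  have hhatnP : ¬ D.PTriv (D.hat κs) := by
    rw [← zk_one_fun]
    exact D.zk_not_pTriv D.pTriv_oneC one_ne_zero hκs1
  have hagree' : ∀ c, D.r c = 1 → D.hat κs c = (fun _ : D.C => (1 : ℂ)) c := by
    intro c hc
    exact D.hat_of_r hc
  set Γ : G → ℂ := indFun D.C (D.hat κs - fun _ => 1) with hΓ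
  have hΓg : IsGeneralizedCharacter G Γ := D.genChar_ind_sub hhat D.isIrr_oneC
  have hΓ1 : Γ 1 = 0 := D.ind_sub_one (D.hat_apply_one κs)
  have hnc1 : ¬ D.Cj (D.hat κs) (fun _ => (1 : ℂ)) := fun hc => D.not_cj_one hhatnP hc.symm
  have hΓn : classInner Γ Γ = ((1 + e : ℤ) : ℂ) := by
    rw [hΓ, D.inner_ind_sub _ _ _ _ hagree', D.cc_of_cj hhat hhat hhatnP (Cj.refl D _),
      D.cc_of_not_cj D.isIrr_oneC hhat (D.not_cj_one hhatnP), D.cc_of_not_cj hhat D.isIrr_oneC hnc1,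
      D.cc_one_one e he]
    push_cast
    ring
  obtain ⟨a, haΓ⟩ := genChar_exists_coeff hΓg
  obtain ⟨k, hk⟩ := D.mm_nat hψc D.isIrr_oneC
  have hk0 : k ≠ 0 := by
    intro h
    apply ha
    rw [hk, h]
    simp
  -- coefficient at `ψ`
  have haψ : a ⟨ψ, hψ⟩ = -(k : ℤ) := by
    have h1 := haΓ ⟨ψ, hψ⟩
    rw [hΓ, D.inner_ind_sub_irr hψc hhat D.isIrr_oneC, hκsm, hk] at h1
    have : ((-(k : ℤ) : ℤ) : ℂ) = ((a ⟨ψ, hψ⟩ : ℤ) : ℂ) := by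
      rw [← h1]; push_cast; ring
    exact_mod_cast this.symm
  -- coefficient at the principal character
  have h1G : IsIrrCharacter G (fun _ => (1 : ℂ)) := Cfsg.Agent.Lib.Helper83.isIrr_trivial
  have hmm1 : ∀ ζ' : D.C → ℂ, IsIrrCharacter D.C ζ' → D.mm (fun _ => (1 : ℂ)) ζ' =
      if (fun _ => (1 : ℂ)) = ζ' then 1 else 0 := by
    intro ζ' hζ'
    exact classInner_irr D.isIrr_oneC hζ'
  have hne_one : ∀ ζ' : D.C → ℂ, ¬ D.PTriv ζ' → (fun _ => (1 : ℂ)) ≠ ζ' := by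
    intro ζ' h h'
    exact h (h' ▸ D.pTriv_oneC)
  have ha1 : a ⟨_, h1G⟩ = -1 := by
    have h1 := haΓ ⟨_, h1G⟩
    rw [hΓ, D.inner_ind_sub_irr (Cfsg.Agent.Lib.Helper82.isIrr_isChar h1G) hhat D.isIrr_oneC,
      hmm1 _ hhat, hmm1 _ D.isIrr_oneC, if_neg (hne_one _ hhatnP), if_pos rfl] at h1
    have : ((-1 : ℤ) : ℂ) = ((a ⟨_, h1G⟩ : ℤ) : ℂ) := by
      rw [← h1]; push_cast; ring
    exact_mod_cast this.symm
  have hψne1 : ψ ≠ fun _ => (1 : ℂ) := by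
    intro h
    apply hζm
    rw [h, hmm1 _ (hirr lam), if_neg (hne_one _ (hnP lam hlam1))]
  -- the family `Y`
  haveI : Nonempty (IrrCharacter G) := ⟨⟨ψ, hψ⟩⟩
  choose! Yf hYf1 hYf2 using hkey lam hlamS1
  set S0' : Finset D.X := S0.filter (fun κ' => ¬ D.Cj (D.hat κs) (D.zk ζ₀ κ')) with hS0'
  have hS0'sub : ∀ κ' ∈ S0', κ' ∈ S0 := fun κ' h => (Finset.mem_filter.1 h).1
  have hcompl : (S0.filter (fun κ' => D.Cj (D.hat κs) (D.zk ζ₀ κ'))).card ≤ e :=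
    D.card_le_of_cj _ (D.zk ζ₀) hinj.injOn
      (Cfsg.Agent.Lib.Helper82.isChar_isClassFunction (Cfsg.Agent.Lib.Helper82.isIrr_isChar hhat))
      (fun κ' h => (Finset.mem_filter.1 h).2) e he
  have hS0'card : S0.card ≤ S0'.card + e := by
    have : (S0.filter (fun κ' => D.Cj (D.hat κs) (D.zk ζ₀ κ'))).card + S0'.card = S0.card :=
      Finset.card_filter_add_card_filter_not (s := S0)
        (fun κ' => D.Cj (D.hat κs) (D.zk ζ₀ κ'))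
    omega
  have haY : ∀ κ' ∈ S0', a (Yf κ') = -(k : ℤ) := by
    intro κ' hκ'
    have hκ'0 := hS0'sub κ' hκ'
    have hκ'1 : κ' ≠ 1 := ((hmem0 κ').1 hκ'0).1
    have h1 : classInner Γ (indFun D.C (D.zk ζ₀ lam - D.zk ζ₀ κ')) = 0 := by
      rw [hΓ, D.inner_ind_sub _ _ _ _ hagree',
        D.cc_of_not_cj hhat (hirr lam) (D.not_cj_of_mm hcl (by rw [hκsm]; exact hζm.symm)),
        D.cc_of_not_cj D.isIrr_oneC (hirr lam) (D.not_cj_one (hnP lam hlam1)),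
        D.cc_of_not_cj hhat (hirr κ') (Finset.mem_filter.1 hκ').2,
        D.cc_of_not_cj D.isIrr_oneC (hirr κ') (D.not_cj_one (hnP κ' hκ'1))]
      ring
    rw [hYf2 κ' hκ'0, classInner_sub_right, haΓ ⟨ψ, hψ⟩, haΓ (Yf κ'), haψ] at h1
    have : ((-(k : ℤ) : ℤ) : ℂ) = ((a (Yf κ') : ℤ) : ℂ) := by
      linear_combination h1
    exact_mod_cast this.symm
  have hfib : ∀ κ₁ ∈ S0, ∀ κ₂ ∈ S0, Yf κ₁ = Yf κ₂ → D.Cj (D.zk ζ₀ κ₁) (D.zk ζ₀ κ₂) := by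
    intro κ₁ h₁ κ₂ h₂ hY
    by_contra hnc
    have h1 := D.inner_DD (hirr lam) (hirr κ₁) (hirr lam) (hirr κ₂) (hnP lam hlam1)
      (hnP κ₁ ((hmem0 κ₁).1 h₁).1) (hagree lam κ₁)
    rw [if_pos (Cj.refl D _), if_neg (fun hc => hnc10 lam hlamS1 κ₁ h₁ hc.symm),
      if_neg (hnc10 lam hlamS1 κ₂ h₂), if_neg hnc, hYf2 κ₁ h₁, hYf2 κ₂ h₂,
      inner_sub_sub hψ (Yf κ₁).2 (Yf κ₂).2 (hYf1 κ₁ h₁) (hYf1 κ₂ h₂), hY,
      classInner_irr_self (Yf κ₂).2] at h1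
    norm_num at h1
  set Im : Finset (IrrCharacter G) := S0'.image Yf with hIm
  have hImcard : S0'.card ≤ e * Im.card := by
    apply Finset.card_le_mul_card_image
    intro Y hY
    obtain ⟨κ₁, hκ₁, rfl⟩ := Finset.mem_image.1 hY
    apply D.card_le_of_cj _ (D.zk ζ₀) hinj.injOn (hclz κ₁) _ e he
    intro κ₂ hκ₂
    have h2 := Finset.mem_filter.1 hκ₂
    exact hfib κ₁ (hS0'sub κ₁ hκ₁) κ₂ (hS0'sub κ₂ h2.1) h2.2.symm
  have hIme : e ≤ Im.card + 1 := by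
    by_contra hlt
    push Not at hlt
    have h1 : e * Im.card + 2 * e ≤ e * e := by nlinarith
    have h2 : e ^ 2 = e * e := sq e
    omega
  -- distinctness
  have hψIm : (⟨ψ, hψ⟩ : IrrCharacter G) ∉ Im := by
    intro h
    obtain ⟨κ₁, hκ₁, h1⟩ := Finset.mem_image.1 h
    exact hYf1 κ₁ (hS0'sub κ₁ hκ₁) (congrArg Subtype.val h1)
  have h1Im : (⟨_, h1G⟩ : IrrCharacter G) ∉ Im := by
    intro h
    obtain ⟨κ₁, hκ₁, h1⟩ := Finset.mem_image.1 h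
    have hκ₁0 := hS0'sub κ₁ hκ₁
    have h2 := D.inner_ind_sub_irr (Cfsg.Agent.Lib.Helper82.isIrr_isChar h1G) (hirr lam) (hirr κ₁)
    rw [hmm1 _ (hirr lam), hmm1 _ (hirr κ₁), if_neg (hne_one _ (hnP lam hlam1)),
      if_neg (hne_one _ (hnP κ₁ ((hmem0 κ₁).1 hκ₁0).1)), hYf2 κ₁ hκ₁0, h1, classInner_sub_left,
      classInner_irr_ne hψ h1G hψne1, classInner_irr_self h1G] at h2
    norm_num at h2
  have h1ψ : (⟨_, h1G⟩ : IrrCharacter G) ∉ insert (⟨ψ, hψ⟩ : IrrCharacter G) Im := by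
    intro h
    rcases Finset.mem_insert.1 h with h | h
    · exact hψne1 (congrArg Subtype.val h).symm
    · exact h1Im h
  have hkpos : (1 : ℤ) ≤ k := by
    have : 0 < k := Nat.pos_of_ne_zero hk0
    exact_mod_cast this
  refine neg_coeff hΓg hΓ1 a haΓ (insert ⟨_, h1G⟩ (insert ⟨ψ, hψ⟩ Im)) (Finset.insert_nonempty _ _)
    ?_ (1 + e) hΓn ?_
  · intro χ hχ
    rcases Finset.mem_insert.1 hχ with h | h
    · rw [h, ha1]; norm_num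
    · rcases Finset.mem_insert.1 h with h | h
      · rw [h, haψ]; omega
      · obtain ⟨κ₁, hκ₁, rfl⟩ := Finset.mem_image.1 h
        rw [haY κ₁ hκ₁]; omega
  · rw [Finset.sum_insert h1ψ, Finset.sum_insert hψIm, ha1, haψ]
    have h3 : ∑ χ ∈ Im, a χ ^ 2 = (Im.card : ℤ) * (k : ℤ) ^ 2 := by
      rw [Finset.sum_congr rfl (g := fun _ => (k : ℤ) ^ 2)]
      · rw [Finset.sum_const, nsmul_eq_mul]
      · intro χ hχ
        obtain ⟨κ₁, hκ₁, rfl⟩ := Finset.mem_image.1 hχ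
        rw [haY κ₁ hκ₁]; ring
    rw [h3]
    have h4 : (e : ℤ) ≤ Im.card + 1 := by exact_mod_cast hIme
    have h5 : (1 : ℤ) ≤ (k : ℤ) ^ 2 := by nlinarith
    nlinarith

end Data

end Cfsg.Agent.Lib.Helper98.BL
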