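import Cfsg.Agent.Lib.Helper98.BL.Final

/-!
# The Brauer-Leonard theorem (faithful form)
-/

set_option autoImplicit false
set_option linter.unusedSectionVars false

namespace Cfsg.Agent.Lib.Helper98.BL

open Cfsg Cfsg.Agent.Lib.Helper20 Cfsg.Agent.Lib.Helper32
open scoped ComplexConjugate

universe u

/-- **Brauer-Leonard**, faithful form (statement S4485), by induction on the order. -/
theorem brauer_leonard_faithful (p : ℕ) (hp : p.Prime) (n : ℕ) : ∀ (k : ℕ) (G : Type u) [Group G]
    [Finite G], Nat.card G = k → ∀ (P : Sylow p G),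
    (∀ x ∈ (P : Subgroup G), x ≠ 1 → Subgroup.centralizer ({x} : Set G) =
      Subgroup.centralizer ((P : Subgroup G) : Set G)) →
    Nat.card P = p ^ n → ∀ χ : G → ℂ, IsCharacter G χ → (∀ g : G, χ g = χ 1 → g = 1) →
    charDegree χ ^ 2 + 1 < p ^ n → (P : Subgroup G).Normal := by
  intro k
  induction k using Nat.strong_induction_on with
  | _ k ih =>
  intro G _ _ hk P hstar hn χ hχ hfaith hdeg
  classical
  haveI : Fact p.Prime := ⟨hp⟩
  have := Fintype.ofFinite G
  by_cases hK : ∃ K : Subgroup G, K.Normal ∧ K ≠ ⊤ ∧ (P : Subgroup G) ≤ K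
  · obtain ⟨K, hKn, hKtop, hPK⟩ := hK
    have hcard : Nat.card K < k := by
      rw [← hk]
      by_contra hlt
      push Not at hlt
      exact hKtop (Subgroup.eq_top_of_le_card K hlt)
    have hmem : ∀ y : K, y ∈ ((P.subtype hPK : Sylow p K) : Subgroup K) ↔ (y : G) ∈ (P : Subgroup G) :=
      fun y => Iff.rfl
    have hnorm : ((P.subtype hPK : Sylow p K) : Subgroup K).Normal := by
      apply ih (Nat.card K) hcard K rfl (P.subtype hPK) _ _ (fun y : K => χ y)
        (Cfsg.Agent.Lib.Helper82.isChar_comp_hom hχ K.subtype) _ hdeg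
      · intro x hx hx1
        have hx1' : (x : G) ≠ 1 := fun h => hx1 (Subtype.ext h)
        have h1 := hstar x ((hmem x).1 hx) hx1'
        ext y
        rw [Subgroup.mem_centralizer_singleton_iff, Subgroup.mem_centralizer_iff]
        have h2 : (y : G) ∈ Subgroup.centralizer ({(x : G)} : Set G) ↔
            (y : G) ∈ Subgroup.centralizer ((P : Subgroup G) : Set G) := by rw [h1]
        rw [Subgroup.mem_centralizer_singleton_iff, Subgroup.mem_centralizer_iff] at h2
        constructor
        · intro h z hz
          apply Subtype.ext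
          exact h2.1 (congrArg Subtype.val h) z ((hmem z).1 hz)
        · intro h
          apply Subtype.ext
          apply h2.2
          intro z hz
          exact congrArg Subtype.val (h ⟨z, hPK hz⟩ hz)
      · rw [← hn]
        exact Nat.card_congr (Subgroup.subgroupOfEquivOfLe hPK).toEquiv
      · intro g hg
        apply Subtype.ext
        exact hfaith g hg
    have hchar := Sylow.characteristic_of_normal (P.subtype hPK) hnorm
    have h3 : (((P.subtype hPK : Sylow p K) : Subgroup K).map K.subtype).Normal :=
      ConjAct.normal_of_characteristic_of_normal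
    have h4 : ((P.subtype hPK : Sylow p K) : Subgroup K).map K.subtype = (P : Subgroup G) := by
      rw [Sylow.coe_subtype, Subgroup.subgroupOf_map_subtype, inf_eq_left.2 hPK]
    rw [h4] at h3
    exact h3
  · -- all constituents are linear, so `G` is commutative
    have := finite_irrCharacter (G := G)
    have := Fintype.ofFinite (IrrCharacter G)
    have hlin : ∀ ψ : IrrCharacter G, classInner χ (ψ : G → ℂ) ≠ 0 → (ψ : G → ℂ) 1 = 1 := by
      intro ψ hψ
      by_cases h1 : (ψ : G → ℂ) = fun _ => 1
      · rw [h1]
      · have hle := Cfsg.Agent.Lib.Helper82.degree_le_of_constituent hχ ψ.2 hψ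
        have hdeg' : charDegree (ψ : G → ℂ) ^ 2 + 1 < p ^ n := by
          have : charDegree (ψ : G → ℂ) ^ 2 ≤ charDegree χ ^ 2 := Nat.pow_le_pow_left hle 2
          omega
        rcases brauer_leonard_irr p hp P hstar n hn ψ ψ.2 h1 hdeg' with h | h
        · exact absurd h hK
        · rw [Cfsg.Agent.Lib.Helper82.isChar_one_eq (Cfsg.Agent.Lib.Helper82.isIrr_isChar ψ.2), h.2]
          simp
    have hexp := Cfsg.Agent.Lib.Helper4.char_eq_sum_irr hχ
    have hcomm : ∀ z ∈ commutator G, z = 1 := by
      intro z hz
      apply hfaith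
      have h1 := congrFun hexp z
      have h2 := congrFun hexp 1
      simp only [Finset.sum_apply, Pi.smul_apply, smul_eq_mul] at h1 h2
      rw [h1, h2]
      apply Finset.sum_congr rfl
      intro ψ _
      by_cases h0 : classInner χ (ψ : G → ℂ) = 0
      · rw [h0, zero_mul, zero_mul]
      · rw [hlin ψ h0, Cfsg.Agent.Lib.Helper82.isChar_linear_commutator
          (Cfsg.Agent.Lib.Helper82.isIrr_isChar ψ.2) (hlin ψ h0) hz]
    constructor
    intro y hy g
    have h1 : g * y * g⁻¹ * y⁻¹ = 1 := by
      apply hcomm
      exact Subgroup.commutator_mem_commutator (Subgroup.mem_top g) (Subgroup.mem_top y)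
    have h2 : g * y * g⁻¹ = y := mul_inv_eq_one.1 h1
    rw [h2]
    exact hy

end Cfsg.Agent.Lib.Helper98.BL
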