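import Cfsg.Agent.Lib.Helper98.BL.Main
import Cfsg.Agent.Lib.Helper98.BL.Setup

/-!
# The Brauer-Leonard theorem (irreducible form)
-/

set_option autoImplicit false
set_option linter.unusedSectionVars false

namespace Cfsg.Agent.Lib.Helper98.BL

open Cfsg Cfsg.Agent.Lib.Helper20 Cfsg.Agent.Lib.Helper32
open scoped ComplexConjugate

universe u

variable {G : Type u} [Group G]

theorem normalizer_le_normalizer_centralizer (H : Subgroup G) :
    Subgroup.normalizer (H : Set G) ≤
      Subgroup.normalizer ((Subgroup.centralizer (H : Set G) : Subgroup G) : Set G) := by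
  rw [Subgroup.le_normalizer_iff]
  intro g hg k hk
  rw [Subgroup.mem_centralizer_iff]
  intro y hy
  have hy' : g⁻¹ * y * g ∈ H := by
    have := (Subgroup.mem_normalizer_iff.1 (inv_mem hg) y).1 hy
    simpa using this
  have h1 := Subgroup.mem_centralizer_iff.1 hk _ hy'
  calc y * (g * k * g⁻¹) = g * ((g⁻¹ * y * g) * k) * g⁻¹ := by group
    _ = g * (k * (g⁻¹ * y * g)) * g⁻¹ := by rw [h1]
    _ = _ := by group

/-- an irreducible character which is constant is principal -/
theorem eq_one_of_const [Fintype G] {ψ : G → ℂ} (hψ : IsIrrCharacter G ψ)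
    (h : ∀ g, ψ g = ψ 1) : ψ = fun _ => 1 := by
  obtain ⟨d, hd, hd1⟩ := irr_apply_one hψ
  have h1 := classInner_irr_self hψ
  unfold classInner at h1
  simp only [h, hd1, Complex.conj_natCast, Finset.sum_const, Finset.card_univ, nsmul_eq_mul,
    ← Nat.card_eq_fintype_card] at h1
  have h0 : (Nat.card G : ℂ) ≠ 0 := by exact_mod_cast Nat.card_pos.ne'
  have h2 : (d : ℂ) * d = 1 := by
    field_simp at h1
    linear_combination h1
  have h3 : d * d = 1 := by exact_mod_cast h2
  have h4 : d = 1 := Nat.eq_one_of_mul_eq_one_right h3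
  funext g
  rw [h g, hd1, h4]
  simp

namespace Data

variable (D : Data G) [Fintype G] [Fintype D.C]

/-- if all the constituents of `ψ` on `C` are trivial on `Z`, then `Z` is in the kernel -/
theorem const_on_Z {ψ : G → ℂ} (hψ : IsCharacter G ψ)
    (h : ∀ ζ : D.C → ℂ, IsIrrCharacter D.C ζ → D.mm ψ ζ ≠ 0 → D.PTriv ζ) (z : D.Z) :
    ψ z = ψ 1 := by
  classical
  have := finite_irrCharacter (G := D.C)
  have := Fintype.ofFinite (IrrCharacter D.C)
  have hexp := Cfsg.Agent.Lib.Helper4.char_eq_sum_irr (D.isChar_res hψ)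
  have h1 := congrFun hexp (D.inZ z)
  have h2 := congrFun hexp 1
  simp only [Finset.sum_apply, Pi.smul_apply, smul_eq_mul] at h1 h2
  have h3 : D.res ψ (D.inZ z) = D.res ψ 1 := by
    rw [h1, h2]
    apply Finset.sum_congr rfl
    intro ζ _
    by_cases h0 : classInner (D.res ψ) (ζ : D.C → ℂ) = 0
    · rw [h0, zero_mul, zero_mul]
    · rw [h ζ ζ.2 h0 z]
  exact h3

end Data

theorem card_dual {A : Type u} [Group A] [Finite A] (h : ∀ a b : A, a * b = b * a) :
    Nat.card (A →* ℂˣ) = Nat.card A := by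
  letI : CommGroup A := { (inferInstance : Group A) with mul_comm := h }
  exact CommGroup.card_monoidHom_of_hasEnoughRootsOfUnity A ℂ

/-- **Brauer-Leonard**, irreducible form (statement S4486). -/
theorem brauer_leonard_irr [Finite G] (p : ℕ) (hp : p.Prime) (P : Sylow p G)
    (hstar : ∀ x ∈ (P : Subgroup G), x ≠ 1 → Subgroup.centralizer ({x} : Set G) =
      Subgroup.centralizer ((P : Subgroup G) : Set G))
    (n : ℕ) (hn : Nat.card P = p ^ n) (χ : G → ℂ) (hχ : IsIrrCharacter G χ)
    (h1 : χ ≠ fun _ => 1) (hdeg : charDegree χ ^ 2 + 1 < p ^ n) :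
    (∃ K : Subgroup G, K.Normal ∧ K ≠ ⊤ ∧ (P : Subgroup G) ≤ K) ∨
      ((∃ N : Subgroup G, N.Normal ∧ N.index = p ^ n) ∧ charDegree χ = 1) := by
  classical
  haveI : Fact p.Prime := ⟨hp⟩
  have := Fintype.ofFinite G
  by_cases hK : ∃ K : Subgroup G, K.Normal ∧ K ≠ ⊤ ∧ (P : Subgroup G) ≤ K
  · exact Or.inl hK
  right
  push Not at hK
  have hne : Nontrivial (P : Subgroup G) := by
    rw [← Finite.one_lt_card_iff_nontrivial, hn]
    omega
  obtain ⟨D, hDC, hDZ⟩ := exists_data P hstar hne
  have := Fintype.ofFinite D.C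
  have := Fintype.ofFinite D.N
  have := Fintype.ofFinite D.Z
  have hcardX : Nat.card D.X = p ^ n := by
    rw [card_dual (fun a b : D.Z => Subtype.ext (D.hcent a a.2 b (D.hZC b.2))), hDZ, hn]
  have hfinX : Finite D.X := Nat.finite_of_card_ne_zero (by rw [hcardX]; exact pow_ne_zero n hp.ne_zero)
  have := Fintype.ofFinite D.X
  obtain ⟨e, he⟩ := Subgroup.card_dvd_of_le D.C_le_N
  rw [mul_comm] at he
  have hχc : IsCharacter G χ := Cfsg.Agent.Lib.Helper82.isIrr_isChar hχ
  have hx : χ 1 = (charDegree χ : ℂ) := Cfsg.Agent.Lib.Helper82.isChar_one_eq hχc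
  -- kernels
  have hkerTop : ∀ ψ : G → ℂ, ∀ hψ : IsCharacter G ψ, (∀ z : D.Z, ψ z = ψ 1) → ∀ g, ψ g = ψ 1 := by
    intro ψ hψ hz g
    have htop := hK (Cfsg.Agent.Lib.Helper82.charKer ψ hψ) inferInstance
    by_contra hg
    have h2 : Cfsg.Agent.Lib.Helper82.charKer ψ hψ ≠ ⊤ := by
      intro h3
      apply hg
      have : g ∈ Cfsg.Agent.Lib.Helper82.charKer ψ hψ := h3 ▸ Subgroup.mem_top g
      exact this
    apply htop h2
    intro y hy
    exact hz ⟨y, hDZ ▸ hy⟩
  have hker : ∀ ψ : G → ℂ, IsIrrCharacter G ψ → ψ ≠ (fun _ => 1) →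
      ∃ ζ : D.C → ℂ, IsIrrCharacter D.C ζ ∧ ¬ D.PTriv ζ ∧ D.mm ψ ζ ≠ 0 := by
    intro ψ hψ hψ1
    by_contra hall
    push Not at hall
    apply hψ1
    have hψc := Cfsg.Agent.Lib.Helper82.isIrr_isChar hψ
    apply eq_one_of_const hψ
    apply hkerTop ψ hψc
    apply D.const_on_Z hψc
    intro ζ hζ hm
    by_contra hnP
    exact hm (hall ζ hζ hnP)
  have hmain := D.main e (p ^ n) (charDegree χ) he
    (by rw [← Nat.card_eq_fintype_card, hcardX]) hχ hx hdeg hker h1
  have hresirr : IsIrrCharacter D.C (D.res χ) :=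
    isIrrCharacter_of_classInner_self (D.isChar_res hχc) hmain
  -- degree one
  set θ : G → ℂ := χ * (fun g => conj (χ g)) with hθ
  have hθc : IsCharacter G θ := isCharacter_mul hχc (isCharacter_conj hχc)
  have hθconst : ∀ g, θ g = θ 1 := by
    apply hkerTop θ hθc
    intro z
    have := Cfsg.Agent.Lib.Helper82.isIrr_central_mul_conj hresirr (D.inZ_mem_center z)
    simp only [hθ, Pi.mul_apply]
    have h3 : χ z * conj (χ z) = χ 1 ^ 2 := this
    rw [h3, hx]
    simp [sq]
  have hdeg1 : charDegree χ = 1 := by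
    have h2 := classInner_irr_self hχ
    unfold classInner at h2
    have h3 : ∀ g, χ g * conj (χ g) = (charDegree χ : ℂ) * charDegree χ := by
      intro g
      have := hθconst g
      simp only [hθ, Pi.mul_apply, hx, Complex.conj_natCast] at this
      exact this
    simp only [h3, Finset.sum_const, Finset.card_univ, nsmul_eq_mul,
      ← Nat.card_eq_fintype_card] at h2
    have h0 : (Nat.card G : ℂ) ≠ 0 := by exact_mod_cast Nat.card_pos.ne'
    have h4 : (charDegree χ : ℂ) * charDegree χ = 1 := by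
      field_simp at h2
      linear_combination h2
    have h5 : charDegree χ * charDegree χ = 1 := by exact_mod_cast h4
    exact Nat.eq_one_of_mul_eq_one_right h5
  refine ⟨?_, hdeg1⟩
  -- Burnside
  have hNC : Subgroup.normalizer ((P : Subgroup G) : Set G) ≤
      Subgroup.centralizer ((P : Subgroup G) : Set G) := by
    intro g hg
    by_contra hgC
    have hgN : g ∈ D.N := by
      have := normalizer_le_normalizer_centralizer (P : Subgroup G) hg
      rw [← hDC] at this
      exact this
    have hfix : D.res χ ∘ D.cj ⟨g, hgN⟩ = D.res χ := by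
      funext c
      simp only [Function.comp_apply, Data.res_apply, Data.cj_coe]
      have := Cfsg.Agent.Lib.Helper82.isChar_isClassFunction hχc (c : G) g⁻¹
      rw [inv_inv] at this
      exact this
    have hPT := D.pTriv_of_fixed hresirr ⟨g, hgN⟩ hfix (by rw [hDC]; exact hgC)
    apply h1
    apply eq_one_of_const hχ
    apply hkerTop χ hχc
    intro z
    exact hPT z
  refine ⟨(MonoidHom.transferSylow P hNC).ker, inferInstance, ?_⟩
  rw [(MonoidHom.ker_transferSylow_isComplement' P hNC).symm.index_eq_card, hn]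

end Cfsg.Agent.Lib.Helper98.BL
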