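import Cfsg.Agent.Lib.Helper98.BL.Weight

/-!
# Main abstract theorem: a small irreducible character restricts irreducibly to `C`
-/

set_option autoImplicit false
set_option linter.unusedSectionVars false

namespace Cfsg.Agent.Lib.Helper98.BL

open Cfsg Cfsg.Agent.Lib.Helper20 Cfsg.Agent.Lib.Helper32
open scoped ComplexConjugate

universe u

variable {G : Type u} [Group G]

namespace Data

variable (D : Data G) [Fintype G] [Fintype D.C] [Fintype D.N] [Fintype D.X] [Fintype D.Z]

theorem isMulCommutative_Z : IsMulCommutative D.Z :=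
  ⟨⟨fun a b => Subtype.ext (D.hcent a a.2 b (D.hZC b.2))⟩⟩

theorem res_add (f g : G → ℂ) : D.res (f + g) = D.res f + D.res g := rfl

/-- `|N : C|` is at most the degree of a character having a constituent non-trivial on `Z` -/
theorem e_le_degree (e x : ℕ) (he : Nat.card D.N = e * Nat.card D.C) {χ : G → ℂ}
    (hχ : IsCharacter G χ) (hx : χ 1 = x) {ζ : D.C → ℂ} (hζ : IsIrrCharacter D.C ζ)
    (hnt : ¬ D.PTriv ζ) (hm : D.mm χ ζ ≠ 0) : e ≤ x := by
  classical
  set f : D.N → IrrCharacter D.C := fun n => ⟨ζ ∘ D.cj n, D.isIrr_comp_cj hζ n⟩ with hf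
  have h1 : (Finset.univ : Finset D.N).card ≤ Nat.card D.C * (Finset.univ.image f).card := by
    apply Finset.card_le_mul_card_image
    intro a ha
    obtain ⟨n₀, -, rfl⟩ := Finset.mem_image.1 ha
    have h2 := D.card_fibre_eq hζ hnt (ζ' := ζ ∘ D.cj n₀) ⟨n₀, rfl⟩
    rw [← h2, Nat.card_eq_fintype_card, Fintype.card_subtype]
    apply le_of_eq
    congr 1
    ext n
    simp only [Finset.mem_filter, Finset.mem_univ, true_and, hf, Subtype.mk.injEq]
  have h3 : (Finset.univ.image f).card ≤ x := by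
    apply D.card_le_degree (D.isChar_res hχ) _ _ x hx
    intro a ha
    obtain ⟨n₀, -, rfl⟩ := Finset.mem_image.1 ha
    have := D.mm_cj (Cfsg.Agent.Lib.Helper82.isChar_isClassFunction hχ) ζ n₀
    unfold mm at this hm
    simp only [hf]
    rw [this]
    exact hm
  rw [Finset.card_univ, ← Nat.card_eq_fintype_card, he, mul_comm] at h1
  have h4 : e ≤ (Finset.univ.image f).card := Nat.le_of_mul_le_mul_left h1 Nat.card_pos
  exact h4.trans h3

/-- **Main abstract theorem.** -/
theorem main (e q x : ℕ) (he : Nat.card D.N = e * Nat.card D.C) (hq : Fintype.card D.X = q)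
    {χ : G → ℂ} (hχ : IsIrrCharacter G χ) (hx : χ 1 = x) (hxq : x ^ 2 + 1 < q)
    (hker : ∀ ψ : G → ℂ, IsIrrCharacter G ψ → ψ ≠ (fun _ => 1) →
      ∃ ζ : D.C → ℂ, IsIrrCharacter D.C ζ ∧ ¬ D.PTriv ζ ∧ D.mm ψ ζ ≠ 0)
    (hχ1 : χ ≠ fun _ => 1) : classInner (D.res χ) (D.res χ) = 1 := by
  classical
  have hχc : IsCharacter G χ := Cfsg.Agent.Lib.Helper82.isIrr_isChar hχ
  have := finite_irrCharacter (G := G)
  have := Fintype.ofFinite (IrrCharacter G)
  -- `e ≤ x`
  obtain ⟨ζ, hζ, hζnt, hζm⟩ := hker χ hχ hχ1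
  have hex : e ≤ x := D.e_le_degree e x he hχc hx hζ hζnt hζm
  have heq : e ^ 2 + 1 < q := by
    have : e ^ 2 ≤ x ^ 2 := Nat.pow_le_pow_left hex 2
    omega
  -- the character `θ = χ χ̄`
  set θ : G → ℂ := χ * (fun g => conj (χ g)) with hθ
  have hθc : IsCharacter G θ := isCharacter_mul hχc (isCharacter_conj hχc)
  -- weight of `θ`
  obtain ⟨mθ, hmθ, -⟩ := D.W_char (D.isChar_res hθc) ∅ (by simp)
  have hmθx : mθ + x ≤ x ^ 2 := by
    have := D.isMulCommutative_Z
    have hZc : IsCharacter D.Z (fun z : D.Z => χ z) :=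
      Cfsg.Agent.Lib.Helper82.isChar_comp_hom hχc D.Z.subtype
    obtain ⟨m, hm, hxm⟩ := degree_le_norm hZc x hx
    have h1 : D.W (D.res θ) = (x : ℂ) ^ 2 - m := by
      rw [← hm]
      unfold W classInner
      congr 1
      simp only [res_apply, hθ, Pi.mul_apply, OneMemClass.coe_one, hx, Complex.conj_natCast]
      ring
    rw [hmθ] at h1
    have h2 : ((mθ + m : ℕ) : ℂ) = ((x ^ 2 : ℕ) : ℂ) := by
      push_cast
      linear_combination h1
    have h3 : mθ + m = x ^ 2 := by exact_mod_cast h2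
    omega
  -- constituents of `θ`
  have hzero : ∀ ψ : IrrCharacter G, (ψ : G → ℂ) ≠ (fun _ => 1) → classInner θ (ψ : G → ℂ) ≠ 0 →
      D.mm (ψ : G → ℂ) (fun _ => 1) = 0 := by
    intro ψ hψ1 hψθ
    obtain ⟨θ', hθ', hsum⟩ := Cfsg.Agent.Lib.Helper82.exists_add_of_inner_ne_zero hθc ψ.2 hψθ
    have hψc : IsCharacter G (ψ : G → ℂ) := Cfsg.Agent.Lib.Helper82.isIrr_isChar ψ.2
    obtain ⟨m', hm', -⟩ := D.W_char (D.isChar_res hθ') ∅ (by simp)
    apply D.core e q he hq heq ψ.2 _ (hker ψ ψ.2 hψ1)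
    intro ζ₀ hζ₀ hP T hT
    have h0 : ζ₀ 1 ≠ 0 := Cfsg.Agent.Lib.Helper82.isIrr_one_ne_zero hζ₀
    set f : D.X → IrrCharacter D.C := fun κ => ⟨D.zk ζ₀ κ, D.isIrr_zk hζ₀ κ⟩ with hf
    have hfinj : Function.Injective f := by
      intro a b hab
      exact D.zk_injective hP h0 (congrArg Subtype.val hab)
    obtain ⟨mψ, hmψ, hTle⟩ := D.W_char (D.isChar_res hψc) (T.image f) (by
      intro ζ' hζ'
      obtain ⟨κ, hκ, rfl⟩ := Finset.mem_image.1 hζ'
      exact ⟨(hT κ hκ).2, D.zk_not_pTriv hP h0 (hT κ hκ).1⟩)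
    rw [Finset.card_image_of_injective T hfinj] at hTle
    have h1 : D.W (D.res θ) = D.W (D.res (ψ : G → ℂ)) + D.W (D.res θ') := by
      rw [hsum, res_add, W_add]
    rw [hmθ, hmψ, hm'] at h1
    have h2 : mθ = mψ + m' := by exact_mod_cast h1
    omega
  -- conclusion
  have h1G : IsIrrCharacter G (fun _ => (1 : ℂ)) := Cfsg.Agent.Lib.Helper83.isIrr_trivial
  have hA : classInner (D.res χ) (D.res χ) = classInner (D.res θ) (fun _ => 1) := by
    unfold classInner
    congr 1
    apply Finset.sum_congr rfl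
    intro c _
    simp [res_apply, hθ]
  have hB : classInner θ (fun _ => 1) = 1 := by
    have hB' : classInner θ (fun _ => 1) = classInner χ χ := by
      unfold classInner
      congr 1
      apply Finset.sum_congr rfl
      intro c _
      simp [hθ]
    rw [hB', classInner_irr_self hχ]
  have hexp := Cfsg.Agent.Lib.Helper4.char_eq_sum_irr hθc
  have hres : D.res θ = ∑ ψ : IrrCharacter G, classInner θ (ψ : G → ℂ) • D.res (ψ : G → ℂ) := by
    funext c
    have := congrFun hexp (c : G)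
    simp only [Finset.sum_apply, Pi.smul_apply, smul_eq_mul] at this ⊢
    exact this
  rw [hA, hres, classInner_sum_left, Finset.sum_eq_single (⟨_, h1G⟩ : IrrCharacter G)]
  · rw [classInner_smul_left, hB, one_mul]
    exact classInner_irr_self D.isIrr_oneC
  · intro ψ _ hψ
    rw [classInner_smul_left]
    by_cases h : classInner θ (ψ : G → ℂ) = 0
    · rw [h, zero_mul]
    · have := hzero ψ (fun h' => hψ (Subtype.ext h')) h
      unfold mm at this
      rw [this, mul_zero]
  · intro h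
    exact absurd (Finset.mem_univ _) h

end Data

end Cfsg.Agent.Lib.Helper98.BL
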