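import Cfsg.Agent.Lib.Helper98.BL.Core
import Cfsg.Agent.Lib.Helper83.Basic2

/-!
# The weight `W`: degree of the part of a character of `C` which is non-trivial on `Z`
-/

set_option autoImplicit false
set_option linter.unusedSectionVars false

namespace Cfsg.Agent.Lib.Helper98.BL

open Cfsg Cfsg.Agent.Lib.Helper20 Cfsg.Agent.Lib.Helper32
open scoped ComplexConjugate

universe u

variable {G : Type u} [Group G]

namespace Data

variable (D : Data G) [Fintype G] [Fintype D.C] [Fintype D.Z]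

/-- the weight -/
noncomputable def W (f : D.C → ℂ) : ℂ := f 1 - (Nat.card D.Z : ℂ)⁻¹ * ∑ z : D.Z, f (D.inZ z)

theorem W_add (f g : D.C → ℂ) : D.W (f + g) = D.W f + D.W g := by
  unfold W
  simp only [Pi.add_apply, Finset.sum_add_distrib]
  ring

theorem W_smul (c : ℂ) (f : D.C → ℂ) : D.W (c • f) = c * D.W f := by
  unfold W
  simp only [Pi.smul_apply, smul_eq_mul, ← Finset.mul_sum]
  ring

theorem W_zero : D.W 0 = 0 := by
  unfold W
  simp

theorem W_sum {ι : Type*} (s : Finset ι) (f : ι → D.C → ℂ) :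
    D.W (∑ i ∈ s, f i) = ∑ i ∈ s, D.W (f i) := by
  classical
  induction s using Finset.induction_on with
  | empty => simpa using D.W_zero
  | insert a s ha ih => rw [Finset.sum_insert ha, Finset.sum_insert ha, W_add, ih]

theorem W_of_pTriv {ζ : D.C → ℂ} (h : D.PTriv ζ) : D.W ζ = 0 := by
  unfold W
  simp only [h _, Finset.sum_const, Finset.card_univ, nsmul_eq_mul, ← Nat.card_eq_fintype_card]
  have h0 : (Nat.card D.Z : ℂ) ≠ 0 := by exact_mod_cast Nat.card_pos.ne'
  field_simp
  ring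

theorem W_of_not_pTriv {ζ : D.C → ℂ} (hζ : IsIrrCharacter D.C ζ) (h : ¬ D.PTriv ζ) :
    D.W ζ = ζ 1 := by
  unfold PTriv at h
  push Not at h
  obtain ⟨z₀, hz₀⟩ := h
  have h1 : (∑ z : D.Z, ζ (D.inZ z)) * ζ 1 = ζ (D.inZ z₀) * ∑ z : D.Z, ζ (D.inZ z) := by
    rw [Finset.mul_sum, Finset.sum_mul]
    rw [← Equiv.sum_comp (Equiv.mulLeft z₀) (fun z => ζ (D.inZ z) * ζ 1)]
    apply Finset.sum_congr rfl
    intro z _
    simp only [Equiv.coe_mulLeft, inZ_mul]
    exact Cfsg.Agent.Lib.Helper82.isIrr_central_mul hζ (D.inZ_mem_center z₀) (D.inZ z)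
  have h2 : (∑ z : D.Z, ζ (D.inZ z)) * (ζ 1 - ζ (D.inZ z₀)) = 0 := by linear_combination h1
  have h3 : ∑ z : D.Z, ζ (D.inZ z) = 0 := by
    rcases mul_eq_zero.1 h2 with h | h
    · exact h
    · exact absurd (sub_eq_zero.1 h).symm hz₀
  unfold W
  rw [h3]
  simp

/-- the weight of a character is a natural number bounding the number of its irreducible
constituents which are not trivial on `Z` -/
theorem W_char {Θ : D.C → ℂ} (hΘ : IsCharacter D.C Θ) (T : Finset (IrrCharacter D.C))
    (hT : ∀ ζ ∈ T, classInner Θ (ζ : D.C → ℂ) ≠ 0 ∧ ¬ D.PTriv (ζ : D.C → ℂ)) :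
    ∃ m : ℕ, D.W Θ = m ∧ T.card ≤ m := by
  classical
  have := finite_irrCharacter (G := D.C)
  have := Fintype.ofFinite (IrrCharacter D.C)
  obtain ⟨n, hn, hexp⟩ := Cfsg.Agent.Lib.Helper4.char_eq_sum_nat_irr hΘ
  choose d hd hd1 using fun ζ : IrrCharacter D.C => irr_apply_one ζ.2
  refine ⟨∑ ζ : IrrCharacter D.C, n ζ * (if D.PTriv (ζ : D.C → ℂ) then 0 else d ζ), ?_, ?_⟩
  · rw [hexp, W_sum]
    push_cast
    apply Finset.sum_congr rfl
    intro ζ _
    rw [W_smul]
    split_ifs with h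
    · rw [D.W_of_pTriv h]
    · rw [D.W_of_not_pTriv ζ.2 h, hd1]
  · calc T.card = ∑ ζ ∈ T, 1 := by simp
      _ ≤ ∑ ζ ∈ T, n ζ * (if D.PTriv (ζ : D.C → ℂ) then 0 else d ζ) := by
          apply Finset.sum_le_sum
          intro ζ hζ
          rw [if_neg (hT ζ hζ).2]
          have h1 : n ζ ≠ 0 := by
            intro h0
            apply (hT ζ hζ).1
            rw [hn, h0]
            simp
          have h2 := hd ζ
          exact Nat.mul_pos (Nat.pos_of_ne_zero h1) h2
      _ ≤ _ := Finset.sum_le_sum_of_subset (Finset.subset_univ T)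

/-- the degree of a character bounds the number of its irreducible constituents -/
theorem card_le_degree {Θ : D.C → ℂ} (hΘ : IsCharacter D.C Θ) (T : Finset (IrrCharacter D.C))
    (hT : ∀ ζ ∈ T, classInner Θ (ζ : D.C → ℂ) ≠ 0) (x : ℕ) (hx : Θ 1 = x) : T.card ≤ x := by
  classical
  have := finite_irrCharacter (G := D.C)
  have := Fintype.ofFinite (IrrCharacter D.C)
  obtain ⟨n, hn, hexp⟩ := Cfsg.Agent.Lib.Helper4.char_eq_sum_nat_irr hΘ
  choose d hd hd1 using fun ζ : IrrCharacter D.C => irr_apply_one ζ.2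
  have h1 : x = ∑ ζ : IrrCharacter D.C, n ζ * d ζ := by
    have h2 := congrFun hexp 1
    rw [hx] at h2
    simp only [Finset.sum_apply, Pi.smul_apply, smul_eq_mul, hd1] at h2
    exact_mod_cast h2
  rw [h1]
  calc T.card = ∑ ζ ∈ T, 1 := by simp
    _ ≤ ∑ ζ ∈ T, n ζ * d ζ := by
        apply Finset.sum_le_sum
        intro ζ hζ
        have h1 : n ζ ≠ 0 := by
          intro h0
          apply hT ζ hζ
          rw [hn, h0]
          simp
        exact Nat.mul_pos (Nat.pos_of_ne_zero h1) (hd ζ)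
    _ ≤ _ := Finset.sum_le_sum_of_subset (Finset.subset_univ T)

end Data

/-- for a character of a commutative group, the norm is at least the degree -/
theorem degree_le_norm {A : Type u} [Group A] [Fintype A] [IsMulCommutative A] {Θ : A → ℂ}
    (hΘ : IsCharacter A Θ) (x : ℕ) (hx : Θ 1 = x) : ∃ m : ℕ, classInner Θ Θ = m ∧ x ≤ m := by
  classical
  have := finite_irrCharacter (G := A)
  have := Fintype.ofFinite (IrrCharacter A)
  obtain ⟨n, hn, hexp⟩ := Cfsg.Agent.Lib.Helper4.char_eq_sum_nat_irr hΘ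
  refine ⟨∑ μ : IrrCharacter A, n μ * n μ, ?_, ?_⟩
  · conv_lhs => rw [hexp]
    rw [Cfsg.Agent.Lib.Helper4.classInner_sum_irr]
    push_cast
    apply Finset.sum_congr rfl
    intro μ _
    simp
  · have h1 : x = ∑ μ : IrrCharacter A, n μ := by
      have h2 := congrFun hexp 1
      rw [hx] at h2
      simp only [Finset.sum_apply, Pi.smul_apply, smul_eq_mul,
        Cfsg.Agent.Lib.Helper83.isIrr_one_of_comm (Subtype.prop _), mul_one] at h2
      exact_mod_cast h2
    rw [h1]
    apply Finset.sum_le_sum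
    intro μ _
    exact Nat.le_mul_self (n μ)

end Cfsg.Agent.Lib.Helper98.BL
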